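import Cfsg.Agent.H6.J4.N.Pres

set_option autoImplicit false
set_option maxRecDepth 100000
set_option Elab.async false

namespace Cfsg.H6.J4.N

def R3 : List (List ℕ) := [[2,1,3,1,3,1,2,1,2,1,3,1,2,1,2,1,3,2,1,3,1,3,1,2,1,2,1,3,1,2,1,2,1,3,2,1,3,1,3,1,2,1,2,1,3,1,2,1,2,1,3], [2,1,3,1,3,1,3,1,3,1,2,1,2,1,2,1,2,1,2,1,3,2,1,3,1,3,1,3,1,3,1,2,1,2,1,2,1,2,1,2,1,3,2,1,3,1,3,1,3,1,3,1,2,1,2,1,2,1,2,1,2,1,3], [2,1,3,1,3,1,2,1,2,1,3,1,2,1,2,1,3,2,1,3,1,3,1,3,1,3,1,2,1,2,1,2,1,2,1,2,1,3,2,1,3,1,3,1,2,1,2,1,3,1,2,1,2,1,3,2,1,3,1,3,1,3,1,3,1,2,1,2,1,2,1,2,1,2,1,3,2,1,3,1,3,1,2,1,2,1,3,1,2,1,2,1,3,2,1,3,1,3,1,3,1,3,1,2,1,2,1,2,1,2,1,2,1,3,2,1,3,1,3,1,2,1,2,1,3,1,2,1,2,1,3,2,1,3,1,3,1,3,1,3,1,2,1,2,1,2,1,2,1,2,1,3,2,1,3,1,3,1,2,1,2,1,3,1,2,1,2,1,3,2,1,3,1,3,1,3,1,3,1,2,1,2,1,2,1,2,1,2,1,3,2,1,3,1,3,1,2,1,2,1,3,1,2,1,2,1,3,2,1,3,1,3,1,3,1,3,1,2,1,2,1,2,1,2,1,2,1,3],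 [2,1,3,1,3,1,2,1,2,1,3,1,2,1,2,1,3,2,1,3,1,3,1,3,1,3,1,2,1,2,1,2,1,2,1,2,1,3,2,1,3,1,3,1,2,1,3,1,3,1,2,1,2,1,3,2,1,3,1,3,1,3,1,3,1,2,1,2,1,2,1,2,1,2,1,3,2,1,3,1,3,1,2,1,2,1,3,1,2,1,2,1,3,2,1,3,1,3,1,3,1,3,1,3,1,2,1,2,1,2,1,2,1,3,2,1,3,1,3,1,2,1,2,1,3,1,2,1,2,1,3,2,1,3,1,3,1,3,1,3,1,2,1,2,1,2,1,2,1,2,1,3,2,1,3,1,3,1,2,1,3,1,3,1,2,1,2,1,3,2,1,3,1,3,1,3,1,3,1,2,1,2,1,2,1,2,1,2,1,3,2,1,3,1,3,1,2,1,2,1,3,1,2,1,2,1,3,2,1,3,1,3,1,3,1,3,1,3,1,2,1,2,1,2,1,2,1,3]]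

end Cfsg.H6.J4.N
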