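import Cfsg.Agent.H6.J4.N.Pres
import Cfsg.Agent.H6.J4.N.Chk0
import Cfsg.Agent.H6.J4.N.Chk1

set_option autoImplicit false
set_option maxRecDepth 100000
set_option Elab.async false

namespace Cfsg.H6.J4.N

theorem ptOK : PtOK img 3795 LS EQS := ptOK_of_chk fun p h1 h2 => by
  rw [← ptU_eq]
  exact (range_join (allR_range p0 (by norm_num : 0 + 1344 = 1344)) (range_join (allR_range p1 (by norm_num : 1344 + 1344 = 2688)) (allR_range p2 (by norm_num : 2688 + 1107 = 3795)))) p h1 h2

theorem hrep : repOK 15 72936578009030319896994569032761600 LS EQS D J4.N.R = true := by decide +kernel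

theorem rep : Good (evR img 3795 15) 72936578009030319896994569032761600 ∧ Rels (evR img 3795 15) J4.N.R ∧
    IsAct (MonoidHom.id _) (evR img 3795 15) img 3795 15 := rep_sound ptOK hrep


end Cfsg.H6.J4.N
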